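import Mathlib

set_option autoImplicit false

namespace Cfsg.Agent.Lib.Helper22

theorem card_generating_tuples_add (V : Type*) [AddCommGroup V] (p : ℕ) [hp : Fact p.Prime]
    [Module (ZMod p) V] [Finite V] (r : ℕ) (hcard : Nat.card V = p ^ r) :
    Nat.card {s : Fin r → V // AddSubgroup.closure (Set.range s) = ⊤} =
      ∏ i : Fin r, (p ^ r - p ^ (i : ℕ)) := by
  classical
  have : Fintype V := Fintype.ofFinite _
  have hfin : Module.finrank (ZMod p) V = r := by
    have h1 : Fintype.card V = Fintype.card (ZMod p) ^ Module.finrank (ZMod p) V :=
      Module.card_eq_pow_finrank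
    rw [ZMod.card, ← Nat.card_eq_fintype_card, hcard] at h1
    exact (Nat.pow_right_injective hp.out.two_le h1).symm
  have key1 : ∀ s : Fin r → V, AddSubgroup.closure (Set.range s) = ⊤ ↔
      Submodule.span (ZMod p) (Set.range s) = ⊤ := by
    intro s
    constructor
    · intro h
      rw [eq_top_iff]
      intro x _
      have h1 : AddSubgroup.closure (Set.range s) ≤ (Submodule.span (ZMod p) (Set.range s)).toAddSubgroup := by
        rw [AddSubgroup.closure_le]
        exact Submodule.subset_span
      rw [h] at h1
      exact h1 (AddSubgroup.mem_top x)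
    · intro h
      have h1 : Submodule.span (ZMod p) (Set.range s) ≤
          AddSubgroup.toZModSubmodule p (AddSubgroup.closure (Set.range s)) := by
        rw [Submodule.span_le]
        exact AddSubgroup.subset_closure
      rw [h] at h1
      rw [eq_top_iff]
      intro y _
      exact h1 (Submodule.mem_top : y ∈ ⊤)
  have key2 : ∀ s : Fin r → V, AddSubgroup.closure (Set.range s) = ⊤ ↔ LinearIndependent (ZMod p) s := by
    intro s
    rw [key1]
    constructor
    · intro h
      exact linearIndependent_of_top_le_span_of_card_eq_finrank h.ge (by rw [Fintype.card_fin, hfin])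
    · intro h
      exact h.span_eq_top_of_card_eq_finrank' (by rw [Fintype.card_fin, hfin])
  rw [Nat.card_congr (Equiv.subtypeEquivRight key2), card_linearIndependent (by rw [hfin]), hfin, ZMod.card]

/-- The number of generating `r`-tuples of an elementary abelian group of order `p ^ r`. -/
theorem card_generating_tuples (E : Type*) [CommGroup E] [Finite E] (p : ℕ) [hp : Fact p.Prime]
    (hexp : ∀ x : E, x ^ p = 1) (r : ℕ) (hcard : Nat.card E = p ^ r) :
    Nat.card {w : Fin r → E // Subgroup.closure (Set.range w) = ⊤} =
      ∏ i : Fin r, (p ^ r - p ^ (i : ℕ)) := by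
  have hexp' : ∀ x : Additive E, p • x = 0 := fun x => congrArg Additive.ofMul (hexp (Additive.toMul x))
  have hfinite : Finite (Additive E) := inferInstanceAs (Finite E)
  have h1 := @card_generating_tuples_add (Additive E) _ p hp (AddCommGroup.zmodModule hexp') hfinite r hcard
  rw [← h1]
  have key : ∀ w : Fin r → E, Subgroup.closure (Set.range w) = ⊤ ↔
      AddSubgroup.closure (Set.range (fun i => Additive.ofMul (w i))) = ⊤ := by
    intro w
    have h2 : Subgroup.toAddSubgroup (Subgroup.closure (Set.range w)) =
        AddSubgroup.closure (Set.range (fun i => Additive.ofMul (w i))) := by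
      rw [Subgroup.toAddSubgroup_closure]
      congr 1
    rw [← h2]
    constructor
    · intro h; rw [h]; rfl
    · intro h
      apply Subgroup.toAddSubgroup.injective
      rw [h]; rfl
  let e : {w : Fin r → E // Subgroup.closure (Set.range w) = ⊤} ≃
      {s : Fin r → Additive E // AddSubgroup.closure (Set.range s) = ⊤} :=
    { toFun := fun w => ⟨fun i => Additive.ofMul (w.1 i), (key w.1).mp w.2⟩
      invFun := fun s => ⟨fun i => Additive.toMul (s.1 i), (key _).mpr s.2⟩
      left_inv := fun w => rfl
      right_inv := fun s => rfl }
  exact Nat.card_congr e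

end Cfsg.Agent.Lib.Helper22
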